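import Mathlib
import Cfsg.Agent.Lib.Helper73.HA.Defs
import Cfsg.Agent.Lib.Helper73.HT.Main4

set_option autoImplicit false

/-! Project HA, package STRUCT-PRIME: a Hall subgroup of `Sym(Ω)` of prime degree `n` for the
set of the primes below `n` is a point stabilizer. -/

namespace Cfsg.Agent.Lib.Helper53.HA

open Equiv Cfsg.Agent.Lib.Helper73.HT

universe u

theorem lemStructPrime : Cfsg.Agent.Lib.Helper73.HA.LemStructPrime.{u} := by
  intro Ω _ _ π H hH hn hπ
  classical
  set n := Fintype.card Ω with hn_def
  have hn2 : 2 ≤ n := hn.two_le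
  haveI hne : Nonempty Ω := Fintype.card_pos_iff.mp (by omega)
  have hnπ : n ∉ π := fun h => lt_irrefl n ((hπ n hn le_rfl).1 h)
  have hnH : ¬ n ∣ Nat.card H := fun h => hnπ (hH.1 n hn h)
  have hfix : ∃ ω : Ω, ∀ g ∈ H, g ω = ω := by
    obtain ⟨x⟩ := id hne
    set s := orb H x with hs_def
    have hsinv : ∀ h ∈ H, ∀ y, h y ∈ s ↔ y ∈ s := orb_inv x
    have hchoose := hall_choose hH s hsinv
    have hk1 : 1 ≤ s.card := Finset.card_pos.mpr ⟨x, self_mem_orb x⟩
    have hkn : s.card < n := by
      by_contra hge
      have hle : s.card ≤ n := Finset.card_le_univ s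
      have heq : s = Finset.univ := by
        apply Finset.eq_univ_of_card; omega
      apply hnH
      apply Cfsg.Agent.Lib.Helper62.HT.card_dvd_of_transitive
      intro y z
      have hy : y ∈ s := by rw [heq]; exact Finset.mem_univ y
      have hz : z ∈ s := by rw [heq]; exact Finset.mem_univ z
      exact orb_trans x y hy z hz
    by_cases hk : s.card = 1
    · refine ⟨x, fun g hg => ?_⟩
      obtain ⟨a, ha⟩ := Finset.card_eq_one.mp hk
      have hx : x ∈ s := self_mem_orb x
      have hgx : g x ∈ s := (hsinv g hg x).2 hx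
      rw [ha, Finset.mem_singleton] at hx hgx
      rw [hgx, hx]
    by_cases hk' : s.card = n - 1
    · have hc : sᶜ.card = 1 := by rw [Finset.card_compl]; omega
      obtain ⟨a, ha⟩ := Finset.card_eq_one.mp hc
      refine ⟨a, fun g hg => ?_⟩
      have ha' : a ∈ sᶜ := by rw [ha]; exact Finset.mem_singleton_self a
      have hga : g a ∈ sᶜ := by
        rw [Finset.mem_compl] at ha' ⊢
        exact fun h => ha' ((hsinv g hg a).1 h)
      rw [ha, Finset.mem_singleton] at hga
      exact hga
    · exfalso
      have hk2 : 2 ≤ s.card := by omega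
      have hk3 : s.card ≤ n - 2 := by omega
      obtain ⟨d, e, he2, hed, hde, hch⟩ : ∃ d e : ℕ, 2 ≤ e ∧ e ≤ d ∧ d + e = n ∧
          Nat.choose (d + e) e = Nat.choose n s.card := by
        rcases le_total s.card (n - s.card) with h | h
        · exact ⟨n - s.card, s.card, hk2, h, by omega,
            by rw [show n - s.card + s.card = n by omega]⟩
        · refine ⟨s.card, n - s.card, by omega, h, by omega, ?_⟩
          rw [show s.card + (n - s.card) = n by omega]
          exact Nat.choose_symm (by omega)
      have h43 := nt1 d e he2 hed (fun p hp hpd => by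
        rw [hch]
        exact hchoose p hp ((hπ p hp (by omega)).2 (by omega)))
      obtain ⟨rfl, rfl⟩ := h43
      have h5 : (5 : ℕ) ∈ π := (hπ 5 (by norm_num) (by omega)).2 (by omega)
      apply hchoose 5 (by norm_num) h5
      rw [← hch]
      decide
  obtain ⟨ω, hω⟩ := hfix
  refine ⟨ω, fun g => ⟨hω g, fun hg => ?_⟩⟩
  set St : Subgroup (Perm Ω) := MulAction.stabilizer (Perm Ω) ω with hSt
  have hHSt : H ≤ St := fun h hh => MulAction.mem_stabilizer_iff.mpr (hω h hh)
  have hgSt : g ∈ St := MulAction.mem_stabilizer_iff.mpr hg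
  have hidx : St.index = n := by
    rw [hSt, MulAction.index_stabilizer_of_transitive, Nat.card_eq_fintype_card]
  have hcardSt : Nat.card St * n = n.factorial := by
    have h1 := Subgroup.card_mul_index St
    rw [hidx] at h1
    rw [h1, Nat.card_eq_fintype_card, Fintype.card_perm]
  have hcardSt' : Nat.card St = (n - 1).factorial := by
    have hfac : n.factorial = n * (n - 1).factorial := by
      obtain ⟨m, hm⟩ : ∃ m, n = m + 1 := ⟨n - 1, by omega⟩
      rw [hm]
      simp [Nat.factorial_succ]
    rw [hfac, mul_comm] at hcardSt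
    exact Nat.eq_of_mul_eq_mul_left (by omega) hcardSt
  have hrel : H.relIndex St = 1 := by
    by_contra hne1
    obtain ⟨p, hp, hpd⟩ := Nat.exists_prime_and_dvd hne1
    have h1 : p ∣ Nat.card St := dvd_trans hpd (Subgroup.relIndex_dvd_card H St)
    rw [hcardSt'] at h1
    have hpn : p ≤ n - 1 := (Nat.Prime.dvd_factorial hp).1 h1
    have hpπ : p ∈ π := (hπ p hp (by omega)).2 (by omega)
    exact hH.2 p hp hpπ (dvd_trans hpd (Subgroup.relIndex_dvd_index_of_le hHSt))
  have hle : St ≤ H := Subgroup.relIndex_eq_one.mp hrel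
  exact hle hgSt

end Cfsg.Agent.Lib.Helper53.HA
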